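import Cfsg.Agent.Lib.Helper17.ChevOrbit
import Cfsg.Agent.Lib.Helper18.ChevUnits
import Cfsg.Agent.Lib.Helper28.CoverM
import Cfsg.Agent.Lib.Helper28.G23Mult.Mat

/-!
# Three generators of `G₂(3)` satisfying the relators `relL0` (helper28)

`gS 0, gS 1, gS 2` are the elements `u, v, t` of the Chevalley group `G₂(3)`, products of root
elements; their matrices are the coded matrices of `Mat`, so the relators `relL0` hold, and each
root element `x_r(1)` is the value of the word `rootW r` in `u, v, t`.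
-/

set_option autoImplicit false

namespace Cfsg.Agent.Lib.Helper28.G23Mult

open Matrix Cfsg.Lie
open Cfsg.Agent.Lib.Helper56.TC (ew ew_nil ew_cons ew_append ew_congr)
open Cfsg.Agent.Lib.Helper18 (xU coe_xU xU_mem_group)
open Cfsg.Agent.Lib.Helper28.CovL
open Cfsg.Agent.Lib.Helper28.G23Mult.Words

theorem hD : chevG2 ∈ [chevG2, chevB2, chevD4, chevF4, chevE6, chevE7, chevE8] :=
  List.mem_cons_self

/-- the Chevalley group `G₂(3)` -/
abbrev G3 : Type := ↥(chevG2.group (ZMod 3))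

/-- the matrix of an element of `G₂(3)` -/
def valG : G3 →* Matrix ι ι (ZMod 3) :=
  (Units.coeHom (Matrix ι ι (ZMod 3))).comp (chevG2.group (ZMod 3)).subtype

theorem valG_injective : Function.Injective valG := by
  intro a b h
  apply Subtype.ext
  apply Units.ext
  exact h

theorem ew_monoidHom {M N : Type*} [Monoid M] [Monoid N] (f : M →* N) (g : ℕ → M)
    (w : List ℕ) : f (ew g w) = ew (fun i => f (g i)) w := by
  induction w with
  | nil => simp [ew]
  | cons a w ih => rw [ew_cons, ew_cons, map_mul, ih]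

/-- the root letter `2 * r` as an element of `G₂(3)` -/
def XL1 (r : ℕ) : G3 := ⟨xU chevG2 hD r 1, xU_mem_group chevG2 hD _ _⟩

/-- the root letter `2 * r + 1` as an element of `G₂(3)` -/
def XL2 (r : ℕ) : G3 := ⟨xU chevG2 hD r 2, xU_mem_group chevG2 hD _ _⟩

/-- the root letters as elements of `G₂(3)` -/
def XL (a : ℕ) : G3 := if a % 2 = 0 then XL1 (a / 2) else XL2 (a / 2)

theorem valG_XL1 (r : ℕ) (hr : r < 12) : valG (XL1 r) = rI (XB (2 * r)) := by
  show chevG2.x (ZMod 3) r 1 = rI (XB (2 * r))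
  interval_cases r
  · exact rX_0.symm
  · exact rX_2.symm
  · exact rX_4.symm
  · exact rX_6.symm
  · exact rX_8.symm
  · exact rX_10.symm
  · exact rX_12.symm
  · exact rX_14.symm
  · exact rX_16.symm
  · exact rX_18.symm
  · exact rX_20.symm
  · exact rX_22.symm

theorem valG_XL2 (r : ℕ) (hr : r < 12) : valG (XL2 r) = rI (XB (2 * r + 1)) := by
  show chevG2.x (ZMod 3) r 2 = rI (XB (2 * r + 1))
  interval_cases r
  · exact rX_1.symm
  · exact rX_3.symm
  · exact rX_5.symm
  · exact rX_7.symm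
  · exact rX_9.symm
  · exact rX_11.symm
  · exact rX_13.symm
  · exact rX_15.symm
  · exact rX_17.symm
  · exact rX_19.symm
  · exact rX_21.symm
  · exact rX_23.symm

theorem valG_XL (a : ℕ) (ha : a < 24) : valG (XL a) = rI (XB a) := by
  unfold XL
  split_ifs with h
  · have e : 2 * (a / 2) = a := by omega
    rw [valG_XL1 (a / 2) (by omega), e]
  · have e : 2 * (a / 2) + 1 = a := by omega
    rw [valG_XL2 (a / 2) (by omega), e]

theorem valG_ewX (w : List ℕ) (hw : ∀ a ∈ w, a < 24) : valG (ew XL w) = rI (ew XB w) := by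
  rw [ew_monoidHom valG XL w, ew_monoidHom rI XB w]
  apply ew_congr
  intro a ha
  exact valG_XL a (hw a ha)

/-- the generators `u, v, t` of `G₂(3)` (index taken mod 3) -/
def gS (i : ℕ) : G3 :=
  if i % 3 = 0 then ew XL hU else if i % 3 = 1 then ew XL hV else ew XL hT

theorem gS_mod (i : ℕ) : gS (i % 3) = gS i := by
  unfold gS
  rw [Nat.mod_mod]

theorem gS_0 : gS 0 = ew XL hU := rfl

theorem gS_1 : gS 1 = ew XL hV := rfl

theorem gS_2 : gS 2 = ew XL hT := rfl

theorem valG_gS (i : ℕ) (hi : i < 3) : valG (gS i) = rI (BL (2 * i)) := by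
  interval_cases i
  · rw [gS_0, valG_ewX hU (by decide), ew_hU]
    rfl
  · rw [gS_1, valG_ewX hV (by decide), ew_hV]
    rfl
  · rw [gS_2, valG_ewX hT (by decide), ew_hT]
    rfl

theorem BL_inv (i : ℕ) (hi : i < 3) : BL (2 * i) * BL (2 * i + 1) = 1 := by
  interval_cases i
  · exact BL_inv_0
  · exact BL_inv_1
  · exact BL_inv_2

theorem valG_gS_inv (i : ℕ) (hi : i < 3) : valG (gS i)⁻¹ = rI (BL (2 * i + 1)) := by
  have h1 : valG (gS i) * rI (BL (2 * i + 1)) = 1 := by
    rw [valG_gS i hi, ← map_mul, BL_inv i hi, map_one]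
  have h2 : valG (gS i)⁻¹ * valG (gS i) = 1 := by
    rw [← map_mul, inv_mul_cancel, map_one]
  calc valG (gS i)⁻¹ = valG (gS i)⁻¹ * (valG (gS i) * rI (BL (2 * i + 1))) := by
        rw [h1, mul_one]
    _ = rI (BL (2 * i + 1)) := by rw [← mul_assoc, h2, one_mul]

theorem valG_gl (a : ℕ) (ha : a < 6) : valG (gl gS a) = rI (BL a) := by
  unfold gl
  split_ifs with h
  · have e : 2 * (a / 2) = a := by omega
    rw [valG_gS (a / 2) (by omega), e]
  · have e : 2 * (a / 2) + 1 = a := by omega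
    rw [valG_gS_inv (a / 2) (by omega), e]

theorem valG_ewB (l : List ℕ) (hl : ∀ a ∈ l, a < 6) :
    valG (ew (gl gS) l) = rI (ew BL l) := by
  rw [ew_monoidHom valG (gl gS) l, ew_monoidHom rI BL l]
  apply ew_congr
  intro a ha
  exact valG_gl a (hl a ha)

theorem relL0_lt : ∀ l ∈ relL0, ∀ a ∈ l, a < 6 := by decide +kernel

theorem gS_rel : ∀ l ∈ relL0, ew (gl gS) l = 1 := by
  intro l hl
  apply valG_injective
  rw [valG_ewB l (relL0_lt l hl), relB l hl, map_one, map_one]

theorem rootW_lt : ∀ r < 12, ∀ a ∈ rootW r, a < 6 := by decide +kernel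

theorem valG_root (r : ℕ) (hr : r < 12) :
    valG (ew (gl gS) (rootW r)) = chevG2.x (ZMod 3) r 1 := by
  rw [valG_ewB _ (rootW_lt r hr)]
  interval_cases r
  · rw [rootB_0]
    exact rX_0
  · rw [rootB_1]
    exact rX_2
  · rw [rootB_2]
    exact rX_4
  · rw [rootB_3]
    exact rX_6
  · rw [rootB_4]
    exact rX_8
  · rw [rootB_5]
    exact rX_10
  · rw [rootB_6]
    exact rX_12
  · rw [rootB_7]
    exact rX_14
  · rw [rootB_8]
    exact rX_16
  · rw [rootB_9]
    exact rX_18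
  · rw [rootB_10]
    exact rX_20
  · rw [rootB_11]
    exact rX_22

theorem x_two (r : ℕ) (hr : r < 12) :
    chevG2.x (ZMod 3) r 2 = chevG2.x (ZMod 3) r 1 * chevG2.x (ZMod 3) r 1 := by
  interval_cases r
  · rw [← rX_0, ← rX_1, ← map_mul, sqX_0]
  · rw [← rX_2, ← rX_3, ← map_mul, sqX_1]
  · rw [← rX_4, ← rX_5, ← map_mul, sqX_2]
  · rw [← rX_6, ← rX_7, ← map_mul, sqX_3]
  · rw [← rX_8, ← rX_9, ← map_mul, sqX_4]
  · rw [← rX_10, ← rX_11, ← map_mul, sqX_5]
  · rw [← rX_12, ← rX_13, ← map_mul, sqX_6]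
  · rw [← rX_14, ← rX_15, ← map_mul, sqX_7]
  · rw [← rX_16, ← rX_17, ← map_mul, sqX_8]
  · rw [← rX_18, ← rX_19, ← map_mul, sqX_9]
  · rw [← rX_20, ← rX_21, ← map_mul, sqX_10]
  · rw [← rX_22, ← rX_23, ← map_mul, sqX_11]

theorem zmod3_cases : ∀ c : ZMod 3, c = 0 ∨ c = 1 ∨ c = 2 := by decide

end Cfsg.Agent.Lib.Helper28.G23Mult
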