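import Cfsg.Agent.Lib.Helper28.CoverM
import Cfsg.Agent.Lib.Helper28.G23Mult.Hom
import Cfsg.Agent.Lib.Helper28.G23Mult.L0.D
import Cfsg.Agent.Lib.Helper28.G2Mult.L2.D

/-!
# The cover group of `G₂(3)` has order at most `3 · |G₂(3)|` (helper28)

`PS` is the group presented on `u, v, t` by the relators `relL0` (the relators `relL2` of `U₃(3)`
on `u, v`, and three relators involving the involution `t`); `E0` is its cover group
(`Cov.coverRels`).  The subgroup `H1` of `E0` generated by `u, v` satisfies the relations of the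
cover group of the presentation of `U₃(3)`, so it has order at most `6048` (certificate
`G2Mult.L2`), and it has index at most `2106` (certificate `L0`).  Hence
`|E0| ≤ 2106 · 6048 = 3 · 4245696`.  The homomorphism `γ : PS → G₂(3)` is surjective.
-/

set_option autoImplicit false
set_option maxRecDepth 1000000

namespace Cfsg.Agent.Lib.Helper28.G23Mult

open Cfsg.Agent.Lib.Helper56.TC (Tabs ew ew_cons ew_nil ew_append ew_congr)
open Cfsg.Agent.Lib.Helper28.Cov Cfsg.Agent.Lib.Helper28.CovL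
open Cfsg.Lie
open Cfsg.Agent.Lib.Helper18 (xU coe_xU xU_mem_group)
open Cfsg.Agent.Lib.Helper28.G23Mult.Words
open Cfsg.Agent.Lib.Helper28.G2Mult.Words (relL2 facsL2)
open Cfsg.Agent.Lib.Helper28.G2Mult (L2.T)
open scoped commutatorElement

/-- the generator names -/
def nm3 (i : ℕ) : Fin 3 := ⟨i % 3, Nat.mod_lt _ (by norm_num)⟩

theorem nm3_idx (y : Fin 3) : y.val < 3 ∧ nm3 y.val = y :=
  ⟨y.2, Fin.ext (Nat.mod_eq_of_lt y.2)⟩

theorem idx_nm3 (x : ℕ) (hx : x < 3) : (nm3 x).val = x := Nat.mod_eq_of_lt hx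

/-- the factorisations of level 0 -/
def fac0 (x : ℕ) : List (List ℕ) := facsL0.getD x []

/-- the factorisations of the presentation of `U₃(3)` -/
def fac2 (x : ℕ) : List (List ℕ) := facsL2.getD x []

/-- the relators of `PS` -/
def RS : Set (FreeGroup (Fin 3)) := {x | ∃ l ∈ relL0, x = wd nm3 l}

/-- the group presented on `u, v, t` -/
abbrev PS : Type := PresentedGroup RS

/-- the cover group of `PS` -/
abbrev E0 : Type := PresentedGroup (coverRels RS (cw nm3 (fun y : Fin 3 => y.val) fac0))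

theorem lok0 : LOk 3 relL0 fac0 := ⟨by decide +kernel, by decide +kernel, by decide +kernel⟩

theorem relL0_mem : ∀ l ∈ relL0, wd nm3 l ∈ RS := fun l hl => ⟨l, hl, rfl⟩

theorem hw0 : ∀ y : Fin 3, cw nm3 (fun y : Fin 3 => y.val) fac0 y ∈
    commutator (FreeGroup (Fin 3)) :=
  cw_mem_commutator nm3 (fun y : Fin 3 => y.val) 3 relL0 fac0 nm3_idx lok0

theorem hw0' : ∀ y : Fin 3, (FreeGroup.of y)⁻¹ * cw nm3 (fun y : Fin 3 => y.val) fac0 y ∈
    Subgroup.normalClosure RS :=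
  cw_mem_normalClosure nm3 (fun y : Fin 3 => y.val) 3 relL0 fac0 RS nm3_idx lok0 relL0_mem

/-- the generators of `E0` -/
noncomputable abbrev g0 : ℕ → E0 := cg nm3 RS (cw nm3 (fun y : Fin 3 => y.val) fac0)

theorem g0_rel : ∀ r ∈ coverList 3 relL0 fac0, ew (gl g0) r = 1 :=
  cover_rel nm3 (fun y : Fin 3 => y.val) 3 relL0 fac0 RS idx_nm3 relL0_mem

/-! ### The subgroup generated by `u`, `v` -/

/-- the generators `u, v` of `E0` -/
def gens2 : Set E0 := {x | ∃ i < 2, x = g0 i}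

/-- the subgroup of `E0` generated by `u, v` -/
noncomputable def H1 : Subgroup E0 := Subgroup.closure gens2

theorem g0_mem_H1 (i : ℕ) (hi : i < 2) : g0 i ∈ H1 := Subgroup.subset_closure ⟨i, hi, rfl⟩

/-- the generators of `H1` -/
noncomputable def h1 (i : ℕ) : H1 := if hi : i < 2 then ⟨g0 i, g0_mem_H1 i hi⟩ else 1

theorem coe_h1 (i : ℕ) (hi : i < 2) : ((h1 i : H1) : E0) = g0 i := by
  unfold h1
  rw [dif_pos hi]

theorem coe_ew_h1 (l : List ℕ) (hl : ∀ a ∈ l, a / 2 < 2) :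
    ((ew (gl h1) l : H1) : E0) = ew (gl g0) l := by
  have h := map_ew_gl H1.subtype h1 l
  have e : ((ew (gl h1) l : H1) : E0) = H1.subtype (ew (gl h1) l) := rfl
  rw [e, h]
  exact ew_gl_congr _ _ 2 (fun i hi => coe_h1 i hi) l hl

theorem h1_closure : Subgroup.closure {x : H1 | ∃ i < 2, x = h1 i} = ⊤ := by
  have e : {x : H1 | ∃ i < 2, x = h1 i} = ((↑) : Subgroup.closure gens2 → E0) ⁻¹' gens2 := by
    ext x
    constructor
    · rintro ⟨i, hi, rfl⟩
      exact ⟨i, hi, coe_h1 i hi⟩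
    · rintro ⟨i, hi, hx⟩
      exact ⟨i, hi, Subtype.ext (hx.trans (coe_h1 i hi).symm)⟩
  rw [e]
  exact Subgroup.closure_closure_coe_preimage

theorem sub01 : ∀ w ∈ coverList 2 relL2 fac2, w ∈ coverList 3 relL0 fac0 := by decide +kernel

theorem card_H1 (hC2 : CertC L2.T) : Finite H1 ∧ Nat.card H1 ≤ 6048 := by
  have hK : L2.T.K = 2 * 2 := rfl
  have hrel : ∀ w ∈ L2.T.rels1, ew (gl h1) w = 1 := by
    intro w hw
    apply Subtype.ext
    have hlt : ∀ a ∈ w, a / 2 < 2 := by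
      intro a ha
      have := hC2.hrelK w hw a ha
      rw [hK] at this
      omega
    rw [coe_ew_h1 w hlt]
    exact g0_rel w (sub01 w hw)
  have hsub : ∀ s ∈ L2.T.subs, ew (gl h1) s ∈ (⊥ : Subgroup H1) :=
    fun s hs => absurd hs List.not_mem_nil
  obtain ⟨f, c⟩ := hC2.card_le (⊥ : Subgroup H1) h1 2 hK h1_closure hrel hsub
  refine ⟨f, ?_⟩
  have e : L2.T.N = 6048 := rfl
  rw [e, Subgroup.card_bot, mul_one] at c
  exact c

theorem ew_mem_H1 (l : List ℕ) (hl : ∀ a ∈ l, a / 2 < 2) : ew (gl g0) l ∈ H1 := by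
  rw [← coe_ew_h1 l hl]
  exact SetLike.coe_mem _

theorem subs0_lt : ∀ s ∈ subs0, ∀ a ∈ s, a / 2 < 2 := by decide +kernel

theorem card_E0 (hC0 : CertC L0.T) (hC2 : CertC L2.T) :
    Finite E0 ∧ Nat.card E0 ≤ 12737088 := by
  obtain ⟨f1, c1⟩ := card_H1 hC2
  have : Finite H1 := f1
  obtain ⟨h1, h2⟩ := level_card_le nm3 (fun y : Fin 3 => y.val) 3 relL0 fac0 RS hC0 rfl rfl
    nm3_idx idx_nm3 relL0_mem H1 (fun s hs => ew_mem_H1 s (subs0_lt s hs))
  refine ⟨h1, le_trans h2 ?_⟩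
  have e : L0.T.N = 2106 := rfl
  rw [e]
  calc 2106 * Nat.card H1 ≤ 2106 * 6048 := Nat.mul_le_mul_left _ c1
    _ = 12737088 := by norm_num

/-! ### The homomorphism onto `G₂(3)` -/

/-- the generators of `PS` -/
noncomputable def uS (i : ℕ) : PS := PresentedGroup.of (nm3 i)

theorem uS_rel : ∀ l ∈ relL0, ew (gl uS) l = 1 := by
  intro l hl
  have h := mk_wd RS nm3 l
  rw [PresentedGroup.one_of_mem (relL0_mem l hl)] at h
  exact h.symm

theorem γ_rel : ∀ r ∈ RS, FreeGroup.lift (fun y : Fin 3 => gS y.val) r = 1 := by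
  rintro r ⟨l, hl, rfl⟩
  rw [lift_wd]
  have e : (fun i => (fun y : Fin 3 => gS y.val) (nm3 i)) = gS := by
    funext i
    exact gS_mod i
  rw [e]
  exact gS_rel l hl

/-- the homomorphism from `PS` to `G₂(3)` -/
noncomputable def γ : PS →* G3 :=
  PresentedGroup.toGroup (rels := RS) (f := fun y : Fin 3 => gS y.val) γ_rel

theorem γ_uS (i : ℕ) : γ (uS i) = gS i := by
  show PresentedGroup.toGroup (rels := RS) (f := fun y : Fin 3 => gS y.val) γ_rel
    (PresentedGroup.of (nm3 i)) = gS i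
  rw [PresentedGroup.toGroup.of]
  exact gS_mod i

theorem γ_ew (l : List ℕ) : γ (ew (gl uS) l) = ew (gl gS) l := by
  rw [map_ew_gl]
  have e : (fun i => γ (uS i)) = gS := funext γ_uS
  rw [e]

/-- the image of the range of `γ` in the general linear group -/
noncomputable def SR : Subgroup (GL ι (ZMod 3)) := γ.range.map (chevG2.group (ZMod 3)).subtype

theorem xU_one_mem (r : ℕ) (hr : r < 12) : xU chevG2 hD r (1 : ZMod 3) ∈ SR := by
  refine Subgroup.mem_map.mpr ⟨ew (gl gS) (rootW r),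
    MonoidHom.mem_range.mpr ⟨ew (gl uS) (rootW r), γ_ew _⟩, ?_⟩
  apply Units.ext
  rw [coe_xU]
  exact valG_root r hr

theorem xIn_SR (r : ℕ) (hr : r < 12) : Cfsg.Agent.Lib.Helper17.XIn chevG2 hD SR r := by
  intro t
  rcases zmod3_cases t with rfl | rfl | rfl
  · have h : xU chevG2 hD r (0 : ZMod 3) = 1 := Units.ext (by rw [coe_xU]; exact x_zero r hr)
    rw [h]
    exact SR.one_mem
  · exact xU_one_mem r hr
  · have h : xU chevG2 hD r (2 : ZMod 3) = xU chevG2 hD r 1 * xU chevG2 hD r 1 :=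
      Units.ext (by rw [Units.val_mul, coe_xU, coe_xU]; exact x_two r hr)
    rw [h]
    exact SR.mul_mem (xU_one_mem r hr) (xU_one_mem r hr)

theorem γ_surjective : Function.Surjective γ := by
  have hle : chevG2.group (ZMod 3) ≤ SR :=
    Cfsg.Agent.Lib.Helper17.group_le_of_xIn chevG2 hD SR (fun r hr => xIn_SR r hr)
  intro g
  obtain ⟨y, hy, hyg⟩ := Subgroup.mem_map.mp (hle g.2)
  obtain ⟨x, rfl⟩ := MonoidHom.mem_range.mp hy
  exact ⟨x, Subtype.ext hyg⟩

end Cfsg.Agent.Lib.Helper28.G23Mult
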