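import Cfsg.Prelude.Def_KGroupFacts
import Cfsg.Agent.Lib.Helper36.ChevMapBase
import Cfsg.Agent.S1059
import Cfsg.Agent.Lib.Helper28.G23Mult.Low

/-!
# The Schur multiplier of `G₂(3)` is cyclic of order 3 (helper28)

`PS = ⟨u, v, t | relL0⟩` maps onto `G₂(3)` (`γ_surjective`), its cover group `E0` has order at
most `3 · |G₂(3)|` (`card_E0`) and the kernel of the projection `E0 → PS` is central and contains
an element `z` with `z ≠ 1`, `z² ≠ 1` (`Low.exists_proj_ne`).  Hence `PS ≅ G₂(3)`, the kernel has
order 3, `E0` is a stem extension with kernel of order 3, and every finite stem extension is an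
image of `E0` (`Cov.stem_surj`), so the order of its kernel divides 3.  A field with three
elements is isomorphic to `ZMod 3`, which transports the statement to `chevG2.group F`.
-/

set_option autoImplicit false

namespace Cfsg.Agent.Lib.Helper28.G23Mult

open Cfsg.Agent.Lib.Helper28.Cov Cfsg.Agent.Lib.Helper28.CovL
open Cfsg.Agent.Lib.Helper28.G2Mult (L2.T)
open Cfsg.Lie Cfsg.Agent.Lib.Helper36

universe u

section generic

theorem card_ker_mul {Γ G : Type*} [Group Γ] [Group G] (σ : Γ →* G)
    (hs : Function.Surjective σ) : Nat.card σ.ker * Nat.card G = Nat.card Γ := by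
  have h := Subgroup.card_mul_index σ.ker
  rw [Subgroup.index_ker] at h
  have e : Nat.card σ.range = Nat.card G := by
    have : σ.range = ⊤ := MonoidHom.range_eq_top.mpr hs
    rw [this]
    exact Nat.card_congr (Subgroup.topEquiv (G := G)).toEquiv
  rw [e] at h
  exact h

theorem nonempty_equiv_zmod3 {K : Type*} [Group K] (h : Nat.card K = 3) :
    Nonempty (K ≃* Multiplicative (ZMod 3)) := by
  have : Fact (Nat.Prime 3) := ⟨Nat.prime_three⟩
  have : IsCyclic K := isCyclic_of_prime_card h
  refine ⟨mulEquivOfCyclicCardEq ?_⟩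
  rw [h, Nat.card_eq_fintype_card, Fintype.card_multiplicative, ZMod.card]

theorem exists_surj_zmod3 {K : Type*} [Group K] [Finite K] (h : Nat.card K ∣ 3) :
    ∃ f : Multiplicative (ZMod 3) →* K, Function.Surjective f := by
  rcases (Nat.dvd_prime Nat.prime_three).mp h with h1 | h3
  · refine ⟨1, ?_⟩
    intro x
    have : Subsingleton K := (Nat.card_eq_one_iff_unique.mp h1).1
    exact ⟨1, Subsingleton.elim _ _⟩
  · obtain ⟨e⟩ := nonempty_equiv_zmod3 h3
    exact ⟨e.symm.toMonoidHom, e.symm.surjective⟩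

theorem cover_perfect {β : Type*} (S : Set (FreeGroup β)) (w : β → FreeGroup β)
    (hw : ∀ y, w y ∈ commutator (FreeGroup β)) :
    commutator (PresentedGroup (coverRels S w)) = ⊤ := by
  rw [eq_top_iff, ← PresentedGroup.closure_range_of, Subgroup.closure_le]
  rintro _ ⟨y, rfl⟩
  have h1 : PresentedGroup.mk (coverRels S w) ((FreeGroup.of y)⁻¹ * w y) = 1 :=
    PresentedGroup.one_of_mem (mem_coverRels_right S w y)
  rw [map_mul, map_inv, inv_mul_eq_one] at h1
  have h2 : PresentedGroup.mk (coverRels S w) (w y) ∈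
      commutator (PresentedGroup (coverRels S w)) := by
    have hle : (commutator (FreeGroup β)).map (PresentedGroup.mk (coverRels S w)) ≤
        commutator (PresentedGroup (coverRels S w)) := by
      rw [commutator_def, commutator_def, Subgroup.map_commutator]
      exact Subgroup.commutator_mono le_top le_top
    exact hle ⟨_, hw y, rfl⟩
  rw [← h1] at h2
  exact h2

end generic

section field

variable {F₁ : Type*} {F₂ : Type*} [Field F₁] [Field F₂]

theorem glMap_group2 (D : ChevalleyDatum) (f : F₁ →+* F₂) (g : GL D.Idx F₁)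
    (hg : g ∈ D.group F₁) : glMap D f g ∈ D.group F₂ := by
  have h : D.group F₁ ≤ (D.group F₂).comap (glMap D f) := by
    unfold ChevalleyDatum.group
    rw [Subgroup.closure_le]
    rintro x ⟨r, t, hx⟩
    exact Subgroup.subset_closure ⟨r, f t, by rw [coe_glMap, hx, xMat_map_hom]⟩
  exact h hg

theorem glMap_glMap (D : ChevalleyDatum) (e : F₁ ≃+* F₂) (g : GL D.Idx F₂) :
    glMap D (e : F₁ →+* F₂) (glMap D (e.symm : F₂ →+* F₁) g) = g := by
  apply Units.ext
  rw [coe_glMap, coe_glMap, Matrix.map_map]
  ext i j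
  simp

/-- a ring isomorphism of the fields induces an isomorphism of the Chevalley groups -/
noncomputable def groupEquivOfRingEquiv (D : ChevalleyDatum) (e : F₁ ≃+* F₂) :
    D.group F₁ ≃* D.group F₂ :=
  MulEquiv.ofBijective
    (((glMap D (e : F₁ →+* F₂)).comp (D.group F₁).subtype).codRestrict (D.group F₂)
      (fun g => glMap_group2 D _ g.1 g.2))
    ⟨by
      intro a b h
      apply Subtype.ext
      exact glMap_injective D _ (congrArg Subtype.val h),
     by
      intro g
      exact ⟨⟨glMap D (e.symm : F₂ →+* F₁) g.1, glMap_group2 D _ g.1 g.2⟩,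
        Subtype.ext (glMap_glMap D e g.1)⟩⟩

end field

theorem card_G3 : Nat.card G3 = 4245696 := by
  have h := Cfsg.Agent.S1059.result (F := ZMod 3) (q := 3) (ZMod.card 3)
  rw [h]
  norm_num

/-- The Schur multiplier of `G₂(3)` is cyclic of order 3. -/
theorem g2_3_multiplier (hC0 : CertC L0.T) (hC2 : CertC L2.T)
    {F : Type u} [Field F] [Fintype F] (hF : Fintype.card F = 3) :
    Cfsg.HasCyclicSchurMultiplier ↥(chevG2.group F) 3 := by
  obtain ⟨f0, c0⟩ := card_E0 hC0 hC2
  have : Finite E0 := f0
  obtain ⟨π, hπs, hπc, z, hz, hz1, hz2⟩ := Low.exists_proj_ne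
  have hPSfin : Finite PS := Finite.of_surjective π hπs
  have hG3 := card_G3
  have hge : 4245696 ≤ Nat.card PS := by
    rw [← hG3]
    exact Nat.card_le_card_of_surjective γ γ_surjective
  have hE0' : Nat.card π.ker * Nat.card PS = Nat.card E0 := card_ker_mul π hπs
  have hne : π.ker ≠ ⊥ := by
    intro hb
    rw [hb, Subgroup.mem_bot] at hz
    exact hz1 hz
  have hgt : 1 < Nat.card π.ker := (Subgroup.one_lt_card_iff_ne_bot π.ker).mpr hne
  have h3 : 3 ≤ Nat.card π.ker := by
    by_contra hcon
    have h2 : Nat.card π.ker = 2 := by omega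
    have hp : (⟨z, hz⟩ : π.ker) ^ Nat.card π.ker = 1 := pow_card_eq_one'
    rw [h2] at hp
    have hp2 : z ^ 2 = 1 := congrArg (fun x : π.ker => (x : E0)) hp
    rw [sq] at hp2
    exact hz2 hp2
  have hkπ : Nat.card π.ker = 3 := by
    by_contra hcon
    have h4 : 4 ≤ Nat.card π.ker := by omega
    have : 4 * 4245696 ≤ Nat.card π.ker * Nat.card PS := Nat.mul_le_mul h4 hge
    omega
  have hPS : Nat.card PS = 4245696 := by
    rw [hkπ] at hE0'
    omega
  have hE0 : Nat.card E0 = 12737088 := by
    rw [← hE0', hkπ, hPS]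
  have hb : Function.Bijective γ :=
    γ_surjective.bijective_of_nat_card_le (by rw [hPS, hG3])
  let e₁ : PS ≃* G3 := MulEquiv.ofBijective γ hb
  have hK : Fintype.card (ZMod 3) = Fintype.card F := by rw [hF, ZMod.card]
  let ψ : ZMod 3 ≃+* F := FiniteField.ringEquivOfCardEq hK
  let e : PS ≃* ↥(chevG2.group F) := e₁.trans (groupEquivOfRingEquiv chevG2 ψ)
  have hG : Nat.card ↥(chevG2.group F) = 4245696 := by
    rw [← Nat.card_congr e.toEquiv]
    exact hPS
  let σ : ULift.{u} E0 →* ↥(chevG2.group F) :=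
    (e.toMonoidHom.comp π).comp (MulEquiv.ulift (α := E0)).toMonoidHom
  have hσ : ∀ x : ULift.{u} E0, σ x = e (π x.down) := fun x => rfl
  have hσs : Function.Surjective σ := by
    intro g
    obtain ⟨y, hy⟩ := hπs (e.symm g)
    refine ⟨ULift.up y, ?_⟩
    rw [hσ, hy, e.apply_symm_apply]
  have hperf : commutator (ULift.{u} E0) = ⊤ := by
    have h0 := cover_perfect RS (cw nm3 (fun y : Fin 3 => y.val) fac0) hw0
    let f : E0 →* ULift.{u} E0 := (MulEquiv.ulift (α := E0)).symm.toMonoidHom
    have hf : Function.Surjective f := (MulEquiv.ulift (α := E0)).symm.surjective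
    have h1 := Subgroup.map_commutator (⊤ : Subgroup E0) ⊤ f
    rw [Subgroup.map_top_of_surjective f hf, ← commutator_def, ← commutator_def, h0,
      Subgroup.map_top_of_surjective f hf] at h1
    exact h1.symm
  refine ⟨⟨ULift.{u} E0, inferInstance, inferInstance, σ, ⟨hσs, ?_, ?_⟩, ?_⟩, ?_⟩
  · intro x hx
    rw [MonoidHom.mem_ker, hσ] at hx
    have h1 : π x.down = 1 := by
      apply e.injective
      rw [map_one]
      exact hx
    have h2 := hπc (MonoidHom.mem_ker.mpr h1)
    rw [Subgroup.mem_center_iff] at h2 ⊢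
    intro g
    apply ULift.ext
    exact h2 g.down
  · rw [hperf]
    exact le_top
  · apply nonempty_equiv_zmod3
    have h1 := card_ker_mul σ hσs
    rw [hG] at h1
    have h2 : Nat.card (ULift.{u} E0) = Nat.card E0 := Nat.card_congr Equiv.ulift
    rw [h2, hE0] at h1
    omega
  · intro Γ _ _ τ hτ
    let τ' : Γ →* PS := e.symm.toMonoidHom.comp τ
    have hk : τ'.ker = τ.ker := by
      ext x
      rw [MonoidHom.mem_ker, MonoidHom.mem_ker]
      show e.symm (τ x) = 1 ↔ τ x = 1
      constructor
      · intro h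
        apply e.symm.injective
        rw [map_one]
        exact h
      · intro h
        rw [h, map_one]
    have hτ' : Cfsg.IsStemExtension τ' := by
      obtain ⟨hs, hc, hm⟩ := hτ
      refine ⟨e.symm.surjective.comp hs, ?_, ?_⟩
      · rw [hk]
        exact hc
      · rw [hk]
        exact hm
    obtain ⟨ψ', hψ'⟩ := stem_surj RS (cw nm3 (fun y : Fin 3 => y.val) fac0) hw0 hw0' τ' hτ'
    have h1 := card_ker_mul ψ' hψ'
    have h2 := card_ker_mul τ hτ.1
    rw [hG] at h2
    have h5 : Nat.card ψ'.ker * Nat.card τ.ker = 3 := by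
      have h6 : Nat.card ψ'.ker * Nat.card τ.ker * 4245696 = 3 * 4245696 := by
        rw [mul_assoc, h2, h1, hE0]
      exact Nat.eq_of_mul_eq_mul_right (by norm_num) h6
    exact exists_surj_zmod3 (Dvd.intro_left _ h5)

end Cfsg.Agent.Lib.Helper28.G23Mult
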